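import Cfsg.Agent.Lib.Grp.L34.C0

set_option autoImplicit false
set_option maxRecDepth 100000
set_option Elab.async false
set_option linter.unusedSectionVars false

namespace Cfsg.Agent.CG.L34

theorem tabOK : TabOK 21 8 app 3 38 inv slp where
  w_pos := by decide
  base := allRange_of_allL (l := [0,1,2]) (by decide +kernel) (allL_cons (allLt_of_allRange c0) (allL_cons (allLt_of_allRange c1) (allL_cons (allLt_of_allRange c2) (allL_nil _))))
  defs := allRange_of_allL (l := [3,4,5,6,7,8,9,10,11,12,13,14,15,16,17,18,19,20,21,22,23,24,25,26,27,28,29,30,31,32,33,34,35,36,37]) (by decide +kernel) (allL_cons c3 (allL_cons c4 (allL_cons c5 (allL_cons c6 (allL_cons c7 (allL_cons c8 (allL_cons c9 (allL_cons c10 (allL_cons c11 (allL_cons c12 (allL_cons c13 (allL_cons c14 (allL_cons c15 (allL_cons c16 (allL_cons c17 (allL_cons c18 (allL_cons c19 (allL_cons c20 (allL_cons c21 (allL_cons c22 (allL_cons c23 (allL_cons c24 (allL_cons c25 (allL_cons c26 (allL_cons c27 (allL_cons c28 (allL_cons c29 (allL_cons c30 (allL_cons c31 (allL_cons c32 (allL_cons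 c33 (allL_cons c34 (allL_cons c35 (allL_cons c36 (allL_cons c37 (allL_nil _))))))))))))))))))))))))))))))))))))
  lt := by decide +kernel
  triv := appT_triv (by decide +kernel)
  trivk := c38

/-- The group generated by the basic tables. -/
noncomputable abbrev PG : Subgroup (Equiv.Perm (Fin 21)) := tabGroup 21 8 app 3

noncomputable def act : Act PG (Fin 21) := tabOK.act

theorem chain : ChainOK act mc [] :=
  chainOK_of_chk act mc [] (by simp) (okc_of_okcb c43) c44
  (allL_cons c39 (allL_cons c40 (allL_cons c41 (allL_cons c42 (allL_nil _)))))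

theorem bounds : Bounds tcR tcS 20160 :=
  (show prodTC tc = 20160 by decide +kernel) ▸ bounds_of_chain c53
  (allL_cons c45 (allL_cons c47 (allL_cons c49 (allL_cons c51 (allL_nil _)))))
  (allL_cons c46 (allL_cons c48 (allL_cons c50 (allL_cons c52 (allL_nil _)))))

theorem rels : ∀ v ∈ tcR, ev act.gen v = 1 :=
  tabOK.rels (allL_cons c54 (allL_cons c55 (allL_cons c56 (allL_cons c57 (allL_cons c58 (allL_cons c59 (allL_cons c60 (allL_cons c61 (allL_cons c62 (allL_cons c63 (allL_cons c64 (allL_cons c65 (allL_cons c66 (allL_cons c67 (allL_cons c68 (allL_cons c69 (allL_cons c70 (allL_cons c71 (allL_cons c72 (allL_cons c73 (allL_cons c74 (allL_cons c75 (allL_cons c76 (allL_cons c77 (allL_cons c78 (allL_cons c79 (allL_cons c80 (allL_cons c81 (allL_cons c82 (allL_cons c83 (allL_cons c84 (allL_cons c85 (allL_nil _)))))))))))))))))))))))))))))))))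

theorem clS : cl act.gen tcS = ⊤ :=
  tabOK.cl_eq_top_of_words (Ws := inW) (by decide +kernel) (allRange_of_allL (l := [0,1,2]) (by decide +kernel) (allL_cons c86 (allL_cons c87 (allL_cons c88 (allL_nil _)))))

theorem prod_mc : prodN mc = 20160 := by decide +kernel

theorem le_card : 20160 ≤ Nat.card PG := prod_mc ▸ chain.prodN_le_card

theorem card_le : Nat.card PG ≤ prodN mc := prod_mc ▸ (bounds.card_le rels clS).2

theorem card : Nat.card PG = 20160 := prod_mc ▸ chain.card_eq card_le

theorem base : act.IsBase bs := (show bases mc = bs from (eqL_iff _ _).1 (by decide +kernel)) ▸ chain.isBase card_le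

theorem hinv : ∀ a, act.gen (inv a) = (act.gen a)⁻¹ :=
  tabOK.inv (by decide) base (by decide +kernel) (by decide +kernel)

theorem clAT : cl act.gen [6, 8] = ⊤ :=
  tabOK.cl_eq_top_of_chain (lo := 6) (cnt := 24) (by decide) (by decide) (by decide +kernel) chain card_le (by decide +kernel)

end Cfsg.Agent.CG.L34
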